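import Cfsg.Agent.RootSub.RankOne
import Cfsg.Prelude.Def_Transfer

/-!
# Special rank one groups with abelian unipotent subgroups

Calculus with attached pairs `a`, `b`, the elements `a b⁻¹ a`, and the power identity.
-/

set_option autoImplicit false

namespace Cfsg.Agent.RankOneSpecial

open Cfsg Cfsg.Agent.RootSub
open scoped commutatorElement

variable {G : Type*} [Group G] {A B : Subgroup G}

/-- A special rank one pair with abelian unipotent subgroups. -/
structure SpecialAb (A B : Subgroup G) : Prop where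
  special : IsSpecialRankOnePair A B
  ab : HasAbelianUnipotents A B

/-- `a` and `b` are attached to each other. -/
def Att (A B : Subgroup G) (a b : G) : Prop :=
  a ∈ A ∧ a ≠ 1 ∧ b ∈ B ∧ b ≠ 1 ∧ conjBy A b⁻¹ = conjBy B a⁻¹

/-- The element `a b⁻¹ a` of an attached pair. -/
def nel (a b : G) : G := a * b⁻¹ * a

theorem Att.symm {a b : G} (h : Att A B a b) : Att B A b a :=
  ⟨h.2.2.1, h.2.2.2.1, h.1, h.2.1, h.2.2.2.2.symm⟩

namespace SpecialAb

theorem pair (S : SpecialAb A B) : IsRankOnePair A B := S.special.1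

theorem symm (S : SpecialAb A B) : SpecialAb B A := by
  refine ⟨⟨RankOnePair_symm S.pair, fun b hb hb1 a ha ha1 he => ?_⟩, S.ab.2, S.ab.1⟩
  have h := S.special.2 a ha ha1 b hb hb1 he.symm
  have h' := congrArg (·⁻¹) h
  simp only [mul_inv_rev, inv_inv] at h'
  calc a⁻¹ * b * a = a⁻¹ * (b * a) := mul_assoc _ _ _
    _ = b⁻¹ * (a⁻¹ * b) := h'.symm
    _ = b⁻¹ * a⁻¹ * b := (mul_assoc _ _ _).symm

theorem comm_left (S : SpecialAb A B) {a a' : G} (ha : a ∈ A) (ha' : a' ∈ A) :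
    a * a' = a' * a := by
  haveI := S.ab.1
  exact congrArg Subtype.val (mul_comm' (⟨a, ha⟩ : A) ⟨a', ha'⟩)

theorem comm_right (S : SpecialAb A B) {b b' : G} (hb : b ∈ B) (hb' : b' ∈ B) :
    b * b' = b' * b := S.symm.comm_left hb hb'

theorem exists_att (S : SpecialAb A B) {a : G} (ha : a ∈ A) (ha1 : a ≠ 1) :
    ∃ b, Att A B a b := by
  obtain ⟨b, hb, hb1, he⟩ := S.pair.cond_left a ha ha1
  exact ⟨b, ha, ha1, hb, hb1, he⟩

theorem exists_att_right (S : SpecialAb A B) {b : G} (hb : b ∈ B) (hb1 : b ≠ 1) :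
    ∃ a, Att A B a b := by
  obtain ⟨a, h⟩ := S.symm.exists_att hb hb1
  exact ⟨a, h.symm⟩

theorem att_unique (S : SpecialAb A B) {a b b' : G} (h : Att A B a b) (h' : Att A B a b') :
    b = b' :=
  Pair.partner_unique S.pair h.2.2.1 h'.2.2.1 (h.2.2.2.2.trans h'.2.2.2.2.symm)

theorem att_unique_left (S : SpecialAb A B) {a a' b : G} (h : Att A B a b) (h' : Att A B a' b) :
    a = a' := S.symm.att_unique h.symm h'.symm

/-- `A` acts freely on the members different from `A`. -/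
theorem regular (S : SpecialAb A B) {a a' : G} (ha : a ∈ A) (ha' : a' ∈ A)
    (h : conjBy B a = conjBy B a') : a = a' := by
  have h1 : conjBy B (a'⁻¹ * a) = B := by
    rw [← conjBy_conjBy, h, conjBy_conjBy, inv_mul_cancel, conjBy_one]
  exact (inv_mul_eq_one.1 (Pair.eq_one_of_normalizes S.pair (mul_mem (inv_mem ha') ha) h1)).symm

theorem braid (S : SpecialAb A B) {a b : G} (h : Att A B a b) :
    a * b⁻¹ * a = b⁻¹ * a * b⁻¹ := by
  obtain ⟨ha, ha1, hb, hb1, he⟩ := h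
  have h2 := S.special.2 a ha ha1 b hb hb1 he
  calc a * b⁻¹ * a = a * (b⁻¹ * a * b) * b⁻¹ := by group
    _ = a * (a⁻¹ * b⁻¹ * a) * b⁻¹ := by rw [h2]
    _ = b⁻¹ * a * b⁻¹ := by group

theorem conj_left (S : SpecialAb A B) {a b : G} (h : Att A B a b) :
    (nel a b)⁻¹ * a * nel a b = b⁻¹ := by
  have hb := S.braid h
  unfold nel
  calc (a * b⁻¹ * a)⁻¹ * a * (a * b⁻¹ * a) = a⁻¹ * b * (a * b⁻¹ * a) := by group
    _ = a⁻¹ * b * (b⁻¹ * a * b⁻¹) := by rw [hb]
    _ = b⁻¹ := by group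

theorem conj_right (S : SpecialAb A B) {a b : G} (h : Att A B a b) :
    (nel a b)⁻¹ * b⁻¹ * nel a b = a := by
  have hb := S.braid h
  unfold nel
  calc (a * b⁻¹ * a)⁻¹ * b⁻¹ * (a * b⁻¹ * a) = (b⁻¹ * a * b⁻¹)⁻¹ * b⁻¹ * (a * b⁻¹ * a) := by
        rw [hb]
    _ = b * a⁻¹ * (a * b⁻¹ * a) := by group
    _ = a := by group

theorem conjBy_right_inv (S : SpecialAb A B) {a b : G} (h : Att A B a b) :
    conjBy B (nel a b)⁻¹ = A := by
  obtain ⟨ha, -, hb, -, he⟩ := h
  have e : (nel a b)⁻¹ = a⁻¹ * (b * a⁻¹) := by unfold nel; group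
  rw [e, ← conjBy_conjBy B (b * a⁻¹) a⁻¹, ← conjBy_conjBy B a⁻¹ b, ← he,
    conjBy_conjBy A b⁻¹ b, mul_inv_cancel, conjBy_one, conjBy_mem_self (inv_mem ha)]

theorem conjBy_left_inv (S : SpecialAb A B) {a b : G} (h : Att A B a b) :
    conjBy A (nel a b)⁻¹ = B := by
  have hn : (nel a b)⁻¹ ∈ A ⊔ B := by
    unfold nel
    exact (A ⊔ B).inv_mem (mul_mem (mul_mem (Subgroup.mem_sup_left h.1)
      (Subgroup.mem_sup_right (B.inv_mem h.2.2.1))) (Subgroup.mem_sup_left h.1))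
  by_contra hne
  have := Pair.inf_eq_bot_of_ne S.pair (Pair.unip_invariant Pair.left_mem_unipotents hn)
    (Pair.right_mem_unipotents S.pair) hne
  have h2 : b⁻¹ ∈ conjBy A (nel a b)⁻¹ ⊓ B := by
    refine ⟨?_, B.inv_mem h.2.2.1⟩
    have := conj_mem_conjBy (nel a b)⁻¹ h.1
    rwa [inv_inv, S.conj_left h] at this
  rw [this, Subgroup.mem_bot, inv_eq_one] at h2
  exact h.2.2.2.1 h2

theorem conjBy_right (S : SpecialAb A B) {a b : G} (h : Att A B a b) :
    conjBy B (nel a b) = A := (conjBy_eq_iff.1 (S.conjBy_left_inv h)).trans (by rw [inv_inv]) |>.symm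

theorem conjBy_left (S : SpecialAb A B) {a b : G} (h : Att A B a b) :
    conjBy A (nel a b) = B := (conjBy_eq_iff.1 (S.conjBy_right_inv h)).trans (by rw [inv_inv]) |>.symm

theorem nel_mem (_S : SpecialAb A B) {a b : G} (h : Att A B a b) : nel a b ∈ A ⊔ B :=
  mul_mem (mul_mem (Subgroup.mem_sup_left h.1) (Subgroup.mem_sup_right (B.inv_mem h.2.2.1)))
    (Subgroup.mem_sup_left h.1)

theorem att_inv (S : SpecialAb A B) {a b : G} (h : Att A B a b) : Att A B a⁻¹ b⁻¹ := by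
  obtain ⟨ha, ha1, hb, hb1, -⟩ := id h
  refine ⟨inv_mem ha, inv_ne_one.2 ha1, inv_mem hb, inv_ne_one.2 hb1, ?_⟩
  have e : (nel a b)⁻¹ = a⁻¹ * (b * a⁻¹) := by unfold nel; group
  have h1 := S.conjBy_left_inv h
  rw [e, ← conjBy_conjBy A (b * a⁻¹) a⁻¹, ← conjBy_conjBy A a⁻¹ b,
    conjBy_mem_self (inv_mem ha)] at h1
  rw [inv_inv, inv_inv, conjBy_eq_iff.1 h1, inv_inv]

theorem nel_inv (_S : SpecialAb A B) {a b : G} (_h : Att A B a b) :
    nel a⁻¹ b⁻¹ = (nel a b)⁻¹ := by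
  unfold nel; group

/-- Conjugation by `nel a b` maps `A` into `B`. -/
theorem conj_mem_right (S : SpecialAb A B) {a b x : G} (h : Att A B a b) (hx : x ∈ A) :
    (nel a b)⁻¹ * x * nel a b ∈ B := by
  have := conj_mem_conjBy (nel a b)⁻¹ hx
  rwa [inv_inv, S.conjBy_left_inv h] at this

theorem conj_mem_left (S : SpecialAb A B) {a b x : G} (h : Att A B a b) (hx : x ∈ B) :
    (nel a b)⁻¹ * x * nel a b ∈ A := by
  have := conj_mem_conjBy (nel a b)⁻¹ hx
  rwa [inv_inv, S.conjBy_right_inv h] at this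

theorem conj_pow_left (S : SpecialAb A B) {a b : G} (h : Att A B a b) (k : ℕ) :
    (nel a b)⁻¹ * a ^ k * nel a b = (b ^ k)⁻¹ := by
  have h1 : ((nel a b)⁻¹ * a * ((nel a b)⁻¹)⁻¹) ^ k = (b ^ k)⁻¹ := by
    rw [inv_inv, S.conj_left h, inv_pow]
  rwa [conj_pow, inv_inv] at h1

theorem pow_eq_one_iff (S : SpecialAb A B) {a b : G} (h : Att A B a b) (k : ℕ) :
    a ^ k = 1 ↔ b ^ k = 1 := by
  have h1 := S.conj_pow_left h k
  constructor
  · intro hk
    rw [hk, mul_one, inv_mul_cancel] at h1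
    exact inv_eq_one.1 h1.symm
  · intro hk
    rw [hk, inv_one] at h1
    calc a ^ k = nel a b * ((nel a b)⁻¹ * a ^ k * nel a b) * (nel a b)⁻¹ := by group
      _ = 1 := by rw [h1]; group

/-- The image of a conjugate of `A` under the element attached to `a`. -/
theorem conjBy_image (S : SpecialAb A B) {a b x : G} (h : Att A B a b) (_hx : x ∈ A) :
    conjBy A ((nel a b)⁻¹ * x * nel a b)⁻¹ = conjBy B (a⁻¹ * (b * (a⁻¹ * x⁻¹))) := by
  have e : ((nel a b)⁻¹ * x * nel a b)⁻¹ = (nel a b)⁻¹ * x⁻¹ * nel a b := by group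
  have e2 : (nel a b)⁻¹ * x⁻¹ = a⁻¹ * (b * (a⁻¹ * x⁻¹)) := by unfold nel; group
  rw [e, ← conjBy_conjBy, S.conjBy_left h, e2]

/-- The power identity, in the form `b ↦ bᵏ`. -/
theorem pow_identity : ∀ (k : ℕ) {A B : Subgroup G}, SpecialAb A B → ∀ {a b z : G},
    Att A B a b → Att A B z (b ^ k) → z ^ k = a := by
  intro k
  induction k with
  | zero =>
    intro A B S a b z _ hz
    exact absurd (pow_zero b) hz.2.2.2.1
  | succ k ih =>
    intro A B S a b z h hz
    obtain ⟨ha, ha1, hb, hb1, -⟩ := id h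
    by_cases hk : a ^ k = 1
    · have hbk : b ^ k = 1 := (S.pow_eq_one_iff h k).1 hk
      rw [pow_succ, hbk, one_mul] at hz
      rw [S.att_unique_left hz h, pow_succ, hk, one_mul]
    obtain ⟨d, hd⟩ := S.exists_att (pow_mem ha k) hk
    have hdk : d ^ k = b := ih S.symm h.symm hd.symm
    have hd' := S.att_inv hd
    -- the image of `A` under `b^(k+1)`, computed in two ways
    have key : conjBy B z⁻¹ = conjBy (conjBy A (b * d)) a⁻¹ := by
      have h1 := S.conjBy_image h (inv_mem (pow_mem ha (k + 1)))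
      have e1 : (nel a b)⁻¹ * (a ^ (k + 1))⁻¹ * nel a b = b ^ (k + 1) := by
        have := congrArg (·⁻¹) (S.conj_pow_left h (k + 1))
        simpa [mul_inv_rev, mul_assoc] using this
      rw [e1, hz.2.2.2.2, inv_inv] at h1
      have e2 : a⁻¹ * a ^ (k + 1) = a ^ k := by rw [pow_succ', inv_mul_cancel_left]
      rw [e2] at h1
      rw [h1, ← conjBy_conjBy, ← conjBy_conjBy]
      have h2 := hd'.2.2.2.2
      rw [inv_inv, inv_inv] at h2
      rw [← h2]
      simp only [conjBy_conjBy]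
    have hbd : b * d ≠ 1 := by
      intro he
      rw [he, conjBy_one, conjBy_mem_self (inv_mem ha)] at key
      exact Pair.conjBy_right_ne_left S.pair (inv_mem hz.1) key
    obtain ⟨w, hw⟩ := S.exists_att_right (mul_mem hb hd.2.2.1) hbd
    have hw' := S.att_inv hw
    have h3 := hw'.2.2.2.2
    rw [inv_inv, inv_inv] at h3
    rw [h3, conjBy_conjBy] at key
    have hzw : z⁻¹ = a⁻¹ * w := S.regular (inv_mem hz.1) (mul_mem (inv_mem ha) hw.1) key
    have hp : (b * d) ^ k = b ^ (k + 1) := by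
      rw [(show Commute b d from S.comm_right hb hd.2.2.1).mul_pow, hdk, pow_succ]
    have hzk : z ^ k = w := ih S hw (by rw [hp]; exact hz)
    have hz' : z = w⁻¹ * a := by
      have := congrArg (·⁻¹) hzw
      simpa using this
    rw [pow_succ, hzk]
    conv_lhs => rw [hz']
    group

theorem att_pow (S : SpecialAb A B) {a b d : G} {k : ℕ} (h : Att A B a b)
    (hd : Att A B (a ^ k) d) : d ^ k = b :=
  pow_identity k S.symm h.symm hd.symm

theorem exists_root (S : SpecialAb A B) {a b : G} (h : Att A B a b) {k : ℕ} (hk : a ^ k ≠ 1) :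
    ∃ z, Att A B z (b ^ k) ∧ z ^ k = a := by
  obtain ⟨z, hz⟩ := S.exists_att_right (pow_mem h.2.2.1 k)
    (fun he => hk ((S.pow_eq_one_iff h k).2 he))
  exact ⟨z, hz, pow_identity k S h hz⟩

/-- Elements of order dividing a prime make the whole of `A` of that exponent. -/
theorem pow_eq_one_of_exists (S : SpecialAb A B) {p : ℕ} {t : G} (ht : t ∈ A) (ht1 : t ≠ 1)
    (htp : t ^ p = 1) {c : G} (hc : c ∈ A) : c ^ p = 1 := by
  by_contra hcp
  have hc1 : c ≠ 1 := fun he => hcp (by rw [he, one_pow])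
  have hpow : (c * t) ^ p = c ^ p := by
    rw [(show Commute c t from S.comm_left hc ht).mul_pow, htp, mul_one]
  have hct1 : c * t ≠ 1 := fun he => hcp (by rw [← hpow, he, one_pow])
  obtain ⟨b, hb⟩ := S.exists_att hc hc1
  obtain ⟨b', hb'⟩ := S.exists_att (mul_mem hc ht) hct1
  obtain ⟨d, hd⟩ := S.exists_att (pow_mem hc p) hcp
  have h1 := S.att_pow hb hd
  have h2 := S.att_pow hb' (k := p) (d := d) (by rw [hpow]; exact hd)
  rw [h1] at h2
  exact ht1 (mul_eq_left.1 (S.att_unique_left (h2 ▸ hb') hb))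

/-- `A` is elementary abelian or torsion free. -/
theorem structure_cases (S : SpecialAb A B) :
    (∃ p : ℕ, p.Prime ∧ IsElementaryAbelian p A) ∨
      ∀ a ∈ A, a ≠ 1 → ¬ IsOfFinOrder a := by
  by_cases h : ∀ a ∈ A, a ≠ 1 → ¬ IsOfFinOrder a
  · exact Or.inr h
  left
  push Not at h
  obtain ⟨a, ha, ha1, hfin⟩ := h
  have hpos := hfin.orderOf_pos
  have hne : orderOf a ≠ 1 := fun he => ha1 (orderOf_eq_one_iff.1 he)
  refine ⟨(orderOf a).minFac, Nat.minFac_prime hne, S.ab.1, fun c hc => ?_⟩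
  set p := (orderOf a).minFac
  have hp := Nat.minFac_prime hne
  refine S.pow_eq_one_of_exists (pow_mem ha (orderOf a / p)) ?_ ?_ hc
  · exact pow_ne_one_of_lt_orderOf
      (Nat.div_pos (Nat.le_of_dvd hpos (Nat.minFac_dvd _)) hp.pos).ne'
      (Nat.div_lt_self hpos hp.one_lt)
  · rw [← pow_mul, Nat.div_mul_cancel (Nat.minFac_dvd _), pow_orderOf_eq_one]

end SpecialAb

end Cfsg.Agent.RankOneSpecial
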