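import Cfsg.Agent.RankOneSpecial.Diagonal

/-!
# The commutator subgroup of a special rank one group is quasisimple
-/

set_option autoImplicit false

namespace Cfsg.Agent.RankOneSpecial

open Cfsg Cfsg.Agent.RootSub
open scoped commutatorElement

variable {X : Type*} [Group X] {A B : Subgroup X}

/-- A normal supplement of an abelian subgroup contains the commutator subgroup. -/
theorem commutator_le_of_supplement {N : Subgroup X} [N.Normal] [IsMulCommutative A]
    (h : N ⊔ A = ⊤) : commutator X ≤ N := by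
  have key : ∀ x : X, ∃ a ∈ A, (x : X ⧸ N) = (a : X ⧸ N) := by
    intro x
    have hx : x ∈ N ⊔ A := h ▸ Subgroup.mem_top x
    obtain ⟨n, hn, a, ha, rfl⟩ := Subgroup.mem_sup_of_normal_left.1 hx
    exact ⟨a, ha, by rw [QuotientGroup.mk_mul, (QuotientGroup.eq_one_iff n).2 hn, one_mul]⟩
  rw [_root_.commutator_def, Subgroup.commutator_le]
  intro x _ y _
  obtain ⟨a, ha, hxa⟩ := key x
  obtain ⟨a', ha', hya⟩ := key y
  rw [← QuotientGroup.eq_one_iff, ← QuotientGroup.mk'_apply, map_commutatorElement,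
    QuotientGroup.mk'_apply, QuotientGroup.mk'_apply, hxa, hya, commutatorElement_eq_one_iff_commute]
  exact (show Commute a a' from congrArg Subtype.val (mul_comm' (⟨a, ha⟩ : A) ⟨a', ha'⟩)).map
    (QuotientGroup.mk' N)

theorem mem_unipotents (htop : A ⊔ B = ⊤) (x : X) : conjBy A x ∈ unipotentSubgroups A B :=
  ⟨x, htop ▸ Subgroup.mem_top x, rfl⟩

theorem dichotomy_top (hr : IsRankOnePair A B) (htop : A ⊔ B = ⊤) (N : Subgroup X) (hN : N.Normal) :
    N ⊔ A = ⊤ ∨ N ≤ Subgroup.center X := by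
  rcases Pair.dichotomy hr (N := N) (by rw [htop]; exact le_top)
      (fun x _ n hn => hN.conj_mem n hn x) with h1 | h1
  · exact Or.inl (top_le_iff.1 (htop ▸ h1))
  · exact Or.inr fun n hn => Subgroup.mem_center_iff.2 fun g =>
      (h1 n hn g (htop ▸ Subgroup.mem_top g)).symm

namespace SpecialAb

theorem commutator_sup_eq_top (S : SpecialAb A B) (htop : A ⊔ B = ⊤) :
    commutator X ⊔ A = ⊤ := by
  refine top_le_iff.1 (htop ▸ sup_le le_sup_right ?_)
  obtain ⟨x, -, hx⟩ := Pair.right_mem_unipotents S.pair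
  rw [hx]
  intro z hz
  rw [mem_conjBy] at hz
  have h : z = ⁅x, x⁻¹ * z * x⁆ * (x⁻¹ * z * x) := by
    rw [commutatorElement_def]; group
  rw [h]
  exact mul_mem (Subgroup.mem_sup_left (Subgroup.commutator_mem_commutator
    (Subgroup.mem_top _) (Subgroup.mem_top _))) (Subgroup.mem_sup_right hz)

/-- The partner of an element of `X'` is in `X'`. -/
theorem partner_mem (S : SpecialAb A B) {N : Subgroup X} [N.Normal] {a b : X} (h : Att A B a b)
    (ha : a ∈ N) : b ∈ N := by
  have h1 := Subgroup.Normal.conj_mem inferInstance a ha (nel a b)⁻¹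
  rw [inv_inv, S.conj_left h] at h1
  exact inv_mem_iff.1 h1

theorem isPerfect_commutator (S : SpecialAb A B) (htop : A ⊔ B = ⊤) {a : X} (ha : a ∈ A)
    (ha1 : a ≠ 1) (hac : a ∈ commutator X) : ⁅commutator X, commutator X⁆ = commutator X := by
  refine le_antisymm (Subgroup.commutator_le_left _ _) ?_
  haveI := S.ab.1
  rcases dichotomy_top S.pair htop ⁅commutator X, commutator X⁆ inferInstance with h | h
  · exact commutator_le_of_supplement h
  exfalso
  obtain ⟨b, hb⟩ := S.exists_att ha ha1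
  have hz := Subgroup.mem_center_iff.1
    (h (Subgroup.commutator_mem_commutator hac (S.partner_mem hb hac))) b
  exact Pair.not_commute_commutator S.pair ha ha1 hb.2.2.1 hb.2.2.2.1 hz.symm

/-- An element of a subgroup normalized by `X'` which meets `A` moves `A` to every other member. -/
theorem exists_mem_conjBy (S : SpecialAb A B) {K : Subgroup X}
    (hK : ∀ m ∈ commutator X, ∀ k ∈ K, m * k * m⁻¹ ∈ K) {a : X} (ha : a ∈ A) (ha1 : a ≠ 1)
    (haK : a ∈ K) (hac : a ∈ commutator X) {c : X} (hc : c ∈ A) :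
    ∃ k ∈ K, conjBy A k = conjBy B c := by
  obtain ⟨b, hb⟩ := S.exists_att ha ha1
  have hn : nel a b ∈ commutator X :=
    mul_mem (mul_mem hac (inv_mem (S.partner_mem hb hac))) hac
  have hnc : c * (nel a b)⁻¹ * c⁻¹ ∈ commutator X :=
    Subgroup.Normal.conj_mem inferInstance _ (inv_mem hn) c
  have h1 := hK _ hnc a haK
  have hca : c⁻¹ * a * c = a := by
    rw [mul_assoc, S.comm_left ha hc, inv_mul_cancel_left]
  have h2 : c * (nel a b)⁻¹ * c⁻¹ * a * (c * (nel a b)⁻¹ * c⁻¹)⁻¹ = c * b⁻¹ * c⁻¹ := by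
    calc c * (nel a b)⁻¹ * c⁻¹ * a * (c * (nel a b)⁻¹ * c⁻¹)⁻¹
        = c * ((nel a b)⁻¹ * (c⁻¹ * a * c) * nel a b) * c⁻¹ := by group
      _ = c * ((nel a b)⁻¹ * a * nel a b) * c⁻¹ := by rw [hca]
      _ = c * b⁻¹ * c⁻¹ := by rw [S.conj_left hb]
  rw [h2] at h1
  have hk : c * nel a b * c⁻¹ ∈ K := by
    have e : c * nel a b * c⁻¹ = c * a * c⁻¹ * (c * b⁻¹ * c⁻¹) * (c * a * c⁻¹) := by
      unfold nel; group
    have hca' : c * a * c⁻¹ = a := by rw [S.comm_left hc ha, mul_inv_cancel_right]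
    rw [e, hca']
    exact mul_mem (mul_mem haK h1) haK
  refine ⟨_, hk, ?_⟩
  rw [← conjBy_conjBy A c⁻¹ (c * nel a b), conjBy_mem_self (inv_mem hc), ← conjBy_conjBy,
    S.conjBy_left hb]

/-- A subgroup normalized by `X'` that moves `A` onto `B` meets `A` or `B`. -/
theorem exists_mem_of_swap (S : SpecialAb A B) {K : Subgroup X} (hKle : K ≤ commutator X)
    (hK : ∀ m ∈ commutator X, ∀ k ∈ K, m * k * m⁻¹ ∈ K) {k : X} (hk : k ∈ K)
    (hkA : conjBy A k = B) (hbig : 3 < ENat.card ↥(commutator X ⊓ A : Subgroup X)) :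
    ∃ a ∈ A, a ≠ 1 ∧ a ∈ K := by
  by_contra hcon
  push Not at hcon
  haveI : (K.subgroupOf (commutator X)).Normal :=
    ⟨fun n hn m => hK m m.2 n hn⟩
  let f := QuotientGroup.mk' (K.subgroupOf (commutator X))
  have feq : ∀ x y : commutator X, f x = f y ↔ (x : X)⁻¹ * y ∈ K := fun x y => QuotientGroup.eq
  have hkc : k ∈ commutator X := hKle hk
  -- every element of `B ∩ X'` agrees with an element of `A ∩ X'`
  have hB : ∀ y : commutator X, (y : X) ∈ B → ∃ x : commutator X, (x : X) ∈ A ∧ f y = f x := by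
    intro y hy
    refine ⟨⟨k⁻¹ * y * k, mul_mem (mul_mem (inv_mem hkc) y.2) hkc⟩, ?_, ?_⟩
    · rw [← hkA, mem_conjBy] at hy
      exact hy
    · rw [feq]
      show (y : X)⁻¹ * (k⁻¹ * y * k) ∈ K
      have h1 := hK _ (inv_mem y.2) _ (inv_mem hk)
      rw [inv_inv] at h1
      have e : (y : X)⁻¹ * (k⁻¹ * y * k) = (y : X)⁻¹ * k⁻¹ * y * k := by group
      rw [e]
      exact mul_mem h1 hk
  have hAB : ∀ x y : commutator X, (x : X) ∈ A → (y : X) ∈ B → Commute (f x) (f y) := by
    intro x y hx hy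
    obtain ⟨x', hx', e⟩ := hB y hy
    rw [e]
    refine Commute.map ?_ f
    exact Subtype.ext (S.comm_left hx hx')
  have hthree : ∀ x c : X, x ∈ A → x ≠ 1 → x ∈ commutator X → c ∈ A → c ≠ 1 → c ∈ commutator X →
      x = c ∨ x * c = 1 := by
    intro x c hx hx1 hxc hc hc1 hcc
    obtain ⟨u, hu⟩ := S.exists_att hx hx1
    obtain ⟨w, hw⟩ := S.exists_att hc hc1
    have huc := S.partner_mem hu hxc
    have hwc := S.partner_mem hw hcc
    let x' : commutator X := ⟨x, hxc⟩
    let u' : commutator X := ⟨u, huc⟩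
    let c' : commutator X := ⟨c, hcc⟩
    let w' : commutator X := ⟨w, hwc⟩
    have hxu : f x' = (f u')⁻¹ := by
      have hb : x' * u'⁻¹ * x' = u'⁻¹ * x' * u'⁻¹ := Subtype.ext (S.braid hu)
      have hb' := congrArg f hb
      simp only [map_mul, map_inv] at hb'
      have hc' : Commute (f x') (f u')⁻¹ := (hAB x' u' hx hu.2.2.1).inv_right
      rw [← hc'.eq] at hb'
      exact mul_left_cancel hb'
    have hcw : f c' = (f w')⁻¹ := by
      have hb : c' * w'⁻¹ * c' = w'⁻¹ * c' * w'⁻¹ := Subtype.ext (S.braid hw)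
      have hb' := congrArg f hb
      simp only [map_mul, map_inv] at hb'
      have hc' : Commute (f c') (f w')⁻¹ := (hAB c' w' hc hw.2.2.1).inv_right
      rw [← hc'.eq] at hb'
      exact mul_left_cancel hb'
    refine S.eq_of_conj hu hw ?_
    have hmem : u * ((nel c w)⁻¹ * x * nel c w) ∈ K := by
      have h1 : f (u' * ((c' * w'⁻¹ * c')⁻¹ * x' * (c' * w'⁻¹ * c'))) = 1 := by
        simp only [map_mul, map_inv, ← hcw]
        have hcx : Commute (f c') (f x') := Commute.map (Subtype.ext (S.comm_left hc hx)) f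
        rw [mul_assoc _ (f x'), ← ((hcx.mul_left hcx).mul_left hcx).eq, inv_mul_cancel_left, hxu,
          mul_inv_cancel]
      have h2 := (QuotientGroup.eq_one_iff _).1 h1
      exact h2
    have hmB : u * ((nel c w)⁻¹ * x * nel c w) ∈ B := mul_mem hu.2.2.1 (S.conj_mem_right hw hx)
    by_contra hne
    have hne1 : u * ((nel c w)⁻¹ * x * nel c w) ≠ 1 := fun h =>
      hne (eq_inv_of_mul_eq_one_right h)
    have hn : nel c w ∈ commutator X := mul_mem (mul_mem hcc (inv_mem hwc)) hcc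
    have hmA := S.conj_mem_left hw hmB
    have hmK := hK _ (inv_mem hn) _ hmem
    rw [inv_inv] at hmK
    refine hcon _ hmA ?_ hmK
    intro h
    apply hne1
    calc u * ((nel c w)⁻¹ * x * nel c w)
        = nel c w * ((nel c w)⁻¹ * (u * ((nel c w)⁻¹ * x * nel c w)) * nel c w) * (nel c w)⁻¹ := by
          group
      _ = 1 := by rw [h]; group
  refine lt_irrefl (3 : ℕ∞) (lt_of_lt_of_le hbig ?_)
  rw [show ENat.card ↥(commutator X ⊓ A : Subgroup X) =
    ((commutator X ⊓ A : Subgroup X) : Set X).encard from ENat.card_coe_set_eq _]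
  by_cases hex : ∃ c, c ∈ A ∧ c ≠ 1 ∧ c ∈ commutator X
  · obtain ⟨c, hc, hc1, hcc⟩ := hex
    refine (Set.encard_le_encard (t := {1, c, c⁻¹}) ?_).trans ?_
    · intro x hx
      by_cases hx1 : x = 1
      · exact Or.inl hx1
      · rcases hthree x c hx.2 hx1 hx.1 hc hc1 hcc with h | h
        · exact Or.inr (Or.inl h)
        · exact Or.inr (Or.inr (eq_inv_of_mul_eq_one_left h))
    · calc ({1, c, c⁻¹} : Set X).encard ≤ ({c, c⁻¹} : Set X).encard + 1 := Set.encard_insert_le _ _
        _ ≤ ({c⁻¹} : Set X).encard + 1 + 1 := by gcongr; exact Set.encard_insert_le _ _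
        _ = 3 := by rw [Set.encard_singleton]; norm_num
  · refine (Set.encard_le_encard (t := {1}) ?_).trans (by rw [Set.encard_singleton]; norm_num)
    intro x hx
    by_contra hx1
    exact hex ⟨x, hx.2, hx1, hx.1⟩

/-- A subgroup normalized by `X'` is central or contains `X'`. -/
theorem normal_dichotomy (S : SpecialAb A B) (htop : A ⊔ B = ⊤)
    (hbig : 3 < ENat.card ↥(commutator X ⊓ A : Subgroup X)) {K : Subgroup X}
    (hKle : K ≤ commutator X) (hK : ∀ m ∈ commutator X, ∀ k ∈ K, m * k * m⁻¹ ∈ K) :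
    K ≤ Subgroup.center X ∨ commutator X ≤ K := by
  haveI := S.ab.1
  have hsup := S.commutator_sup_eq_top htop
  by_cases hfix : ∀ k ∈ K, ∀ x : X, conjBy (conjBy A x) k = conjBy A x
  · left
    intro k hk
    have key : ∀ {P Q : Subgroup X}, SpecialAb P Q → (∀ a ∈ P, conjBy (conjBy Q a) k = conjBy Q a) →
        conjBy P k = P → ∀ a ∈ P, k * a = a * k := by
      intro P Q T hQ hP a ha
      have hka : k * a * k⁻¹ ∈ P := by
        have := conj_mem_conjBy k ha
        rwa [hP] at this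
      have hQk : conjBy Q k = Q := by
        have := hQ 1 (one_mem P)
        rwa [conjBy_one] at this
      have h4 : conjBy Q (k * a * k⁻¹) = conjBy Q a := by
        rw [← conjBy_conjBy Q k⁻¹ (k * a), ← conjBy_eq_iff.1 hQk, ← conjBy_conjBy, hQ a ha]
      exact mul_inv_eq_iff_eq_mul.1 (T.regular hka ha h4)
    obtain ⟨x, -, hx⟩ := Pair.right_mem_unipotents S.pair
    have hall := forall_sup_commute
      (key S (fun a _ => by rw [hx, conjBy_conjBy A x a]; exact hfix k hk _)
        (by simpa [conjBy_one] using hfix k hk 1))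
      (key S.symm (fun a _ => hfix k hk a) (by rw [hx]; exact hfix k hk x))
    exact Subgroup.mem_center_iff.2 fun g => (hall g (htop ▸ Subgroup.mem_top g)).symm
  right
  push Not at hfix
  obtain ⟨k, hk, x, hne⟩ := hfix
  haveI : (commutator X).Normal := inferInstance
  obtain ⟨m, hm, a₀, ha₀, rfl⟩ :=
    Subgroup.mem_sup_of_normal_left.1 (show x ∈ commutator X ⊔ A from hsup ▸ Subgroup.mem_top x)
  rw [← conjBy_conjBy A a₀ m, conjBy_mem_self ha₀] at hne
  -- an element of `K` moving `A`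
  have hk' : m⁻¹ * k * m ∈ K := by simpa using hK _ (inv_mem hm) k hk
  have hne' : conjBy A (m⁻¹ * k * m) ≠ A := by
    intro h
    apply hne
    have := congrArg (conjBy · m) h
    simp only [conjBy_conjBy] at this
    rw [conjBy_conjBy, show k * m = m * (m⁻¹ * k * m) by group, this]
  rcases Pair.unip_cases S.pair (mem_unipotents htop (m⁻¹ * k * m)) with h | ⟨c, hc, hcD⟩
  · exact absurd h hne'
  -- a conjugate of `K` moving `A` onto `B`
  let K' : Subgroup X := conjBy K c⁻¹
  have hK'le : K' ≤ commutator X := by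
    intro z hz
    rw [mem_conjBy, inv_inv] at hz
    have := Subgroup.Normal.conj_mem inferInstance _ (hKle hz) c⁻¹
    simpa [mul_assoc] using this
  have hK' : ∀ m ∈ commutator X, ∀ z ∈ K', m * z * m⁻¹ ∈ K' := by
    intro m hm z hz
    rw [mem_conjBy, inv_inv] at hz ⊢
    have := hK _ (Subgroup.Normal.conj_mem inferInstance m hm c) _ hz
    convert this using 1
    group
  obtain ⟨a, ha, ha1, haK'⟩ := S.exists_mem_of_swap hK'le hK'
    (k := c⁻¹ * (m⁻¹ * k * m) * c) (by rw [mem_conjBy, inv_inv]; simpa [mul_assoc] using hk')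
    (by rw [← conjBy_conjBy A c (c⁻¹ * (m⁻¹ * k * m)), conjBy_mem_self hc, ← conjBy_conjBy, hcD,
      conjBy_conjBy, inv_mul_cancel, conjBy_one]) hbig
  have hac := hK'le haK'
  have haK : a ∈ K := by
    rw [mem_conjBy, inv_inv, S.comm_left hc ha, mul_inv_cancel_right] at haK'
    exact haK'
  -- `K` is transitive on the members, so the quotient is abelian
  haveI : (K.subgroupOf (commutator X)).Normal := ⟨fun n hn m => hK m m.2 n hn⟩
  let f := QuotientGroup.mk' (K.subgroupOf (commutator X))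
  have hconj : ∀ (g : X), ∀ z ∈ commutator X ⊓ A, ∃ z' : X, ∃ hz' : z' ∈ commutator X,
      z' ∈ A ∧ ∀ hg : g * z * g⁻¹ ∈ commutator X, f ⟨g * z * g⁻¹, hg⟩ = f ⟨z', hz'⟩ := by
    intro g z hz
    have hgz : g * z * g⁻¹ ∈ commutator X := Subgroup.Normal.conj_mem inferInstance z hz.1 g
    obtain ⟨k, hk, hkA⟩ : ∃ k ∈ K, conjBy A k = conjBy A g := by
      rcases Pair.unip_cases S.pair (mem_unipotents htop g) with h | ⟨c, hc, h⟩
      · exact ⟨1, one_mem _, by rw [conjBy_one, h]⟩
      · obtain ⟨k, hk, hkA⟩ := S.exists_mem_conjBy hK ha ha1 haK hac hc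
        exact ⟨k, hk, hkA.trans h.symm⟩
    refine ⟨k⁻¹ * (g * z * g⁻¹) * k, mul_mem (mul_mem (inv_mem (hKle hk)) hgz) (hKle hk), ?_,
      fun hg => ?_⟩
    · have := conj_mem_conjBy g hz.2
      rw [← hkA, mem_conjBy] at this
      exact this
    · refine QuotientGroup.eq.2 ?_
      show (g * z * g⁻¹)⁻¹ * (k⁻¹ * (g * z * g⁻¹) * k) ∈ K
      have h1 := hK _ (inv_mem hgz) _ (inv_mem hk)
      rw [inv_inv] at h1
      rw [← mul_assoc, ← mul_assoc]
      exact mul_mem h1 hk
  have hgen : commutator X ≤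
      Subgroup.normalClosure ((commutator X ⊓ A : Subgroup X) : Set X) := by
    rcases dichotomy_top S.pair htop _
        (inferInstance : (Subgroup.normalClosure ((commutator X ⊓ A : Subgroup X) : Set X)).Normal)
      with h | h
    · exact commutator_le_of_supplement h
    · exfalso
      obtain ⟨b, hb⟩ := S.exists_att ha ha1
      exact Pair.not_commute S.pair ha ha1 hb.2.2.1 hb.2.2.2.1
        (Subgroup.mem_center_iff.1 (h (Subgroup.subset_normalClosure ⟨hac, ha⟩)) b).symm
  have hnc : Subgroup.normalClosure ((commutator X ⊓ A : Subgroup X) : Set X) ≤ commutator X :=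
    Subgroup.normalClosure_le_normal fun z hz => hz.1
  have hrep : ∀ z (hz : z ∈ commutator X), ∃ z' : X, ∃ hz' : z' ∈ commutator X,
      z' ∈ A ∧ f ⟨z, hz⟩ = f ⟨z', hz'⟩ := by
    intro z hz
    have hz2 := hgen hz
    revert hz
    refine Subgroup.closure_induction (p := fun z _ => ∀ hz : z ∈ commutator X,
      ∃ z' : X, ∃ hz' : z' ∈ commutator X, z' ∈ A ∧ f ⟨z, hz⟩ = f ⟨z', hz'⟩) ?_ ?_ ?_ ?_ hz2
    · intro z hzmem hz
      obtain ⟨y, hy, hconjy⟩ := Group.mem_conjugatesOfSet_iff.1 hzmem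
      obtain ⟨g, rfl⟩ := isConj_iff.1 hconjy
      obtain ⟨z', hz', hzA, he⟩ := hconj g y hy
      exact ⟨z', hz', hzA, he hz⟩
    · intro h1
      exact ⟨1, h1, one_mem _, rfl⟩
    · intro y z hy hz iy iz hyz
      obtain ⟨y', hy', hyA, ey⟩ := iy (hnc hy)
      obtain ⟨z', hz', hzA, ez⟩ := iz (hnc hz)
      refine ⟨y' * z', mul_mem hy' hz', mul_mem hyA hzA, ?_⟩
      calc f ⟨y * z, hyz⟩ = f ⟨y, hnc hy⟩ * f ⟨z, hnc hz⟩ := by rw [← map_mul]; rfl
        _ = f ⟨y' * z', mul_mem hy' hz'⟩ := by rw [ey, ez, ← map_mul]; rfl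
    · intro y hy iy hyi
      obtain ⟨y', hy', hyA, ey⟩ := iy (hnc hy)
      refine ⟨y'⁻¹, inv_mem hy', inv_mem hyA, ?_⟩
      calc f ⟨y⁻¹, hyi⟩ = (f ⟨y, hnc hy⟩)⁻¹ := by rw [← map_inv]; rfl
        _ = f ⟨y'⁻¹, inv_mem hy'⟩ := by rw [ey, ← map_inv]; rfl
  intro z hz
  rw [← S.isPerfect_commutator htop ha ha1 hac] at hz
  refine (Subgroup.commutator_le.2 ?_) hz
  intro y hy z hz
  obtain ⟨y', hy', hyA, ey⟩ := hrep y hy
  obtain ⟨z', hz', hzA, ez⟩ := hrep z hz
  have h1 : f ⁅(⟨y, hy⟩ : commutator X), ⟨z, hz⟩⁆ = 1 := by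
    rw [map_commutatorElement, ey, ez, commutatorElement_eq_one_iff_commute]
    exact Commute.map (Subtype.ext (S.comm_left hyA hzA)) f
  have h2 := (QuotientGroup.eq_one_iff _).1 h1
  exact h2

theorem isQuasisimple_commutator (S : SpecialAb A B) (htop : A ⊔ B = ⊤)
    (hbig : 3 < ENat.card ↥(commutator X ⊓ A : Subgroup X)) :
    IsQuasisimple (commutator X) := by
  obtain ⟨a, ha, ha1⟩ := Pair.exists_ne_one (H := commutator X ⊓ A) (fun h => by
    rw [h] at hbig
    simp at hbig)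
  obtain ⟨hac, haA⟩ := ha
  have hperf := S.isPerfect_commutator htop haA ha1 hac
  refine ⟨Group.isPerfect_def.2 ?_, ?_⟩
  · apply Subgroup.map_injective (commutator X).subtype_injective
    rw [_root_.commutator_def ↥(commutator X), Subgroup.map_commutator, ← MonoidHom.range_eq_map,
      Subgroup.range_subtype, hperf]
  obtain ⟨b, hb⟩ := S.exists_att haA ha1
  haveI : Nontrivial (commutator X ⧸ Subgroup.center (commutator X)) := by
    refine ⟨((⟨a, hac⟩ : commutator X) : commutator X ⧸ Subgroup.center (commutator X)), 1,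
      fun he => ?_⟩
    rw [QuotientGroup.eq_one_iff, Subgroup.mem_center_iff] at he
    exact Pair.not_commute S.pair haA ha1 hb.2.2.1 hb.2.2.2.1
      (congrArg Subtype.val (he ⟨b, S.partner_mem hb hac⟩)).symm
  refine ⟨fun N hN => ?_⟩
  haveI := hN
  let K : Subgroup X :=
    (N.comap (QuotientGroup.mk' (Subgroup.center (commutator X)))).map (commutator X).subtype
  have hKle : K ≤ commutator X := Subgroup.map_subtype_le _
  have hK : ∀ m ∈ commutator X, ∀ k ∈ K, m * k * m⁻¹ ∈ K := by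
    rintro m hm _ ⟨k, hk, rfl⟩
    exact ⟨⟨m, hm⟩ * k * ⟨m, hm⟩⁻¹, (hN.comap _).conj_mem k hk ⟨m, hm⟩, rfl⟩
  rcases S.normal_dichotomy htop hbig hKle hK with h | h
  · left
    rw [eq_bot_iff]
    intro q hq
    obtain ⟨z, rfl⟩ := QuotientGroup.mk'_surjective _ q
    refine Subgroup.mem_bot.2 ((QuotientGroup.eq_one_iff _).2 (Subgroup.mem_center_iff.2 fun g => ?_))
    exact Subtype.ext (Subgroup.mem_center_iff.1 (h ⟨z, hq, rfl⟩) g)
  · right
    rw [eq_top_iff]
    intro q _
    obtain ⟨z, rfl⟩ := QuotientGroup.mk'_surjective _ q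
    obtain ⟨z', hz', e⟩ := h z.2
    rw [← Subtype.ext e]
    exact hz'

end SpecialAb

end Cfsg.Agent.RankOneSpecial
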