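import Cfsg.Agent.RankOneSpecial.Basic

/-!
# The action of the diagonal subgroup on `A`

If `A` has more than three elements, so has `⁅A, H⁆`.
-/

set_option autoImplicit false

namespace Cfsg.Agent.RankOneSpecial

open Cfsg Cfsg.Agent.RootSub
open scoped commutatorElement

variable {G : Type*} [Group G] {A B : Subgroup G}

theorem le_three_of_finite {α : Type*} (h : ¬ (3 : ℕ∞) < ENat.card α) :
    Finite α ∧ Nat.card α ≤ 3 := by
  rw [not_lt] at h
  have hfin : Finite α := ENat.card_lt_top.1 (lt_of_le_of_lt h (ENat.natCast_lt_top 3))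
  refine ⟨hfin, ?_⟩
  rw [ENat.card_eq_coe_natCard] at h
  exact_mod_cast h

namespace SpecialAb

theorem nel_mul_mem (S : SpecialAb A B) {a b c d : G} (h : Att A B a b) (h' : Att A B c d) :
    nel a b * nel c d ∈ rankOneDiagonal A B := by
  refine ⟨⟨mul_mem (S.nel_mem h) (S.nel_mem h'), ?_⟩, ?_⟩
  · apply conjBy_eq_self_iff.1
    rw [← conjBy_conjBy, S.conjBy_left h', S.conjBy_right h]
  · apply conjBy_eq_self_iff.1
    rw [← conjBy_conjBy, S.conjBy_right h', S.conjBy_left h]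

theorem diag_commutator_le (_S : SpecialAb A B) : ⁅A, rankOneDiagonal A B⁆ ≤ A := by
  rw [Subgroup.commutator_le]
  intro a ha g hg
  rw [commutatorElement_def, mul_assoc, mul_assoc]
  refine mul_mem ha ?_
  rw [← mul_assoc]
  exact (Subgroup.mem_normalizer_iff.1 hg.1.2 a⁻¹).1 (inv_mem ha)

theorem comm_mem (_S : SpecialAb A B) {a g : G} (ha : a ∈ A) (hg : g ∈ rankOneDiagonal A B) :
    g⁻¹ * a * g * a⁻¹ ∈ ⁅A, rankOneDiagonal A B⁆ := by
  rw [Subgroup.commutator_comm]
  have := Subgroup.commutator_mem_commutator (inv_mem hg) ha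
  simpa [commutatorElement_def] using this

/-- Transport of attached pairs by the element of an attached pair. -/
theorem shift (S : SpecialAb A B) {d b x z r q : G} (hd : Att A B d b) (hx : x ∈ A) (hx1 : x ≠ 1)
    (hq : Att A B (x * d) q) (hr : (nel d b)⁻¹ * x * nel d b = r) (hz : Att A B z r) :
    Att A B (z * d⁻¹) (q * b⁻¹) := by
  have hqb : q * b⁻¹ ≠ 1 := by
    intro he
    rw [mul_inv_eq_one] at he
    exact hx1 (mul_eq_right.1 (S.att_unique_left (he ▸ hq) hd))
  have h1 := S.conjBy_image hd hx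
  rw [hr, hz.2.2.2.2, ← conjBy_conjBy B (b * (d⁻¹ * x⁻¹)) d⁻¹,
    ← conjBy_conjBy B (d⁻¹ * x⁻¹) b, ← mul_inv_rev x d, ← hq.2.2.2.2,
    conjBy_conjBy A q⁻¹ b] at h1
  have h2 : conjBy B (d * z⁻¹) = conjBy A (b * q⁻¹) := by
    rw [← conjBy_conjBy, h1, conjBy_conjBy _ d⁻¹ d, mul_inv_cancel, conjBy_one]
  refine ⟨mul_mem hz.1 (inv_mem hd.1), ?_, mul_mem hq.2.2.1 (inv_mem hd.2.2.1), hqb, ?_⟩
  · intro he
    rw [mul_inv_eq_one] at he
    rw [he, mul_inv_cancel, conjBy_one] at h2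
    have hm : b * q⁻¹ ∈ B := mul_mem hd.2.2.1 (inv_mem hq.2.2.1)
    exact Pair.conjBy_right_ne_left (RankOnePair_symm S.pair) hm h2.symm
  · rw [mul_inv_rev, inv_inv, mul_inv_rev, inv_inv, h2]

/-- Only `d = x^{±1}` can move `x` the way the element attached to `x` does. -/
theorem eq_of_conj (S : SpecialAb A B) {x c d b : G} (hx : Att A B x c) (hd : Att A B d b)
    (he : (nel d b)⁻¹ * x * nel d b = c⁻¹) : x = d ∨ x * d = 1 := by
  by_cases hy : x * d = 1
  · exact Or.inr hy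
  left
  obtain ⟨q, hq⟩ := S.exists_att (mul_mem hx.1 hd.1) hy
  have h1 := S.shift hd hx.1 hx.2.1 hq he (S.att_inv hx)
  have h2 := S.att_inv hq
  rw [mul_inv_rev, S.comm_left (inv_mem hd.1) (inv_mem hx.1)] at h2
  have h3 : q⁻¹ = q * b⁻¹ := S.att_unique h2 h1
  have hb : b = q ^ 2 := by
    have h4 : q * b⁻¹ * q = 1 := by rw [← h3, inv_mul_cancel]
    rw [mul_assoc, S.comm_right (inv_mem hd.2.2.1) hq.2.2.1, ← mul_assoc, mul_inv_eq_one] at h4
    rw [pow_two, h4]
  have h5 : d ^ 2 = x * d := pow_identity 2 S hq (hb ▸ hd)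
  rw [pow_two] at h5
  exact (mul_right_cancel h5).symm

theorem cube_mem (S : SpecialAb A B) {a : G} (ha : a ∈ A) :
    a ^ 3 ∈ ⁅A, rankOneDiagonal A B⁆ ∨ a ^ 2 = 1 := by
  by_cases h2 : a ^ 2 = 1
  · exact Or.inr h2
  left
  have ha1 : a ≠ 1 := fun he => h2 (by rw [he, one_pow])
  obtain ⟨b, hb⟩ := S.exists_att ha ha1
  obtain ⟨d, hd⟩ := S.exists_att (pow_mem ha 2) h2
  have h := S.att_pow hb hd
  have hg := S.comm_mem ha (S.nel_mul_mem hb hd)
  have e : (nel a b * nel (a ^ 2) d)⁻¹ * a * (nel a b * nel (a ^ 2) d) = a ^ 4 := by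
    calc (nel a b * nel (a ^ 2) d)⁻¹ * a * (nel a b * nel (a ^ 2) d)
        = (nel (a ^ 2) d)⁻¹ * ((nel a b)⁻¹ * a * nel a b) * nel (a ^ 2) d := by group
      _ = (nel (a ^ 2) d)⁻¹ * (d ^ 2)⁻¹ * nel (a ^ 2) d := by rw [S.conj_left hb, h]
      _ = ((nel (a ^ 2) d)⁻¹ * d⁻¹ * nel (a ^ 2) d) * ((nel (a ^ 2) d)⁻¹ * d⁻¹ * nel (a ^ 2) d) := by
          group
      _ = a ^ 4 := by rw [S.conj_right hd]; group
  rw [e] at hg
  have : a ^ 4 * a⁻¹ = a ^ 3 := by group
  rwa [this] at hg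

/-- If `A` has more than three elements then so has `⁅A, H⁆`. -/
theorem three_lt_commutator (S : SpecialAb A B) (hA : 3 < ENat.card A) :
    3 < ENat.card ↥(⁅A, rankOneDiagonal A B⁆ : Subgroup G) := by
  by_contra hcon
  obtain ⟨hfin, hle⟩ := le_three_of_finite hcon
  set C : Subgroup G := ⁅A, rankOneDiagonal A B⁆ with hC
  rcases S.structure_cases with ⟨p, hp, -, hexp⟩ | htf
  swap
  · obtain ⟨a, ha, ha1⟩ := Pair.exists_ne_one (Pair.ne_bot_left S.pair)
    have hmem : ∀ k : ℕ, (a ^ (k + 1)) ^ 3 ∈ C := fun k =>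
      (S.cube_mem (pow_mem ha (k + 1))).resolve_right fun he => by
        rw [← pow_mul] at he
        exact htf a ha ha1 (isOfFinOrder_iff_pow_eq_one.2 ⟨_, by omega, he⟩)
    have hinj : Function.Injective (fun k : ℕ => (⟨_, hmem k⟩ : C)) := by
      intro k l hkl
      have h := congrArg Subtype.val hkl
      simp only [← pow_mul] at h
      have := (injective_pow_iff_not_isOfFinOrder.2 (htf a ha ha1)) h
      omega
    exact not_finite_iff_infinite.2 (Infinite.of_injective _ hinj) hfin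
  by_cases h5 : 5 ≤ p
  · have hmem : ∀ a : A, (a : G) ^ 3 ∈ C := by
      intro a
      rcases S.cube_mem a.2 with h | h
      · exact h
      · have h1 : (a : G) ^ (Nat.gcd 2 p) = 1 := pow_gcd_eq_one.2 ⟨h, hexp a a.2⟩
        rw [(Nat.coprime_primes Nat.prime_two hp).2 (by omega), pow_one] at h1
        rw [h1, one_pow]
        exact one_mem C
    have hinj : Function.Injective (fun a : A => (⟨_, hmem a⟩ : C)) := by
      intro a a' h
      have h3 : ((a : G) * (a' : G)⁻¹) ^ 3 = 1 := by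
        rw [(show Commute (a : G) (a' : G)⁻¹ from S.comm_left a.2 (inv_mem a'.2)).mul_pow,
          inv_pow, mul_inv_eq_one]
        exact congrArg Subtype.val h
      have h1 : ((a : G) * (a' : G)⁻¹) ^ (Nat.gcd 3 p) = 1 :=
        pow_gcd_eq_one.2 ⟨h3, hexp _ (mul_mem a.2 (inv_mem a'.2))⟩
      rw [(Nat.coprime_primes Nat.prime_three hp).2 (by omega), pow_one, mul_inv_eq_one] at h1
      exact Subtype.ext h1
    exact hcon (lt_of_lt_of_le hA (ENat.card_le_card_of_injective hinj))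
  have hp23 : p = 2 ∨ p = 3 := by
    have := hp.two_le
    have : p ≠ 4 := fun h4 => by
      rw [h4] at hp
      norm_num at hp
    omega
  haveI : Fact p.Prime := ⟨hp⟩
  have hord : ∀ {e : G}, e ∈ A → e ≠ 1 → orderOf e = p := fun he he1 =>
    orderOf_eq_prime (hexp _ he) he1
  obtain ⟨e, he, he1, hCe⟩ : ∃ e ∈ A, e ≠ 1 ∧ C ≤ Subgroup.zpowers e := by
    by_cases hbot : C = ⊥
    · obtain ⟨e, he, he1⟩ := Pair.exists_ne_one (Pair.ne_bot_left S.pair)
      exact ⟨e, he, he1, hbot ▸ bot_le⟩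
    obtain ⟨e, he, he1⟩ := Pair.exists_ne_one hbot
    have heA := S.diag_commutator_le he
    refine ⟨e, heA, he1, le_of_eq (Eq.symm ?_)⟩
    haveI : Finite C := hfin
    refine Subgroup.eq_of_le_of_card_ge (Subgroup.zpowers_le.2 he) ?_
    have hd : p ∣ Nat.card C := by
      rw [← hord heA he1, ← Nat.card_zpowers]
      exact Subgroup.card_dvd_of_le (Subgroup.zpowers_le.2 he)
    rw [Nat.card_zpowers, hord heA he1]
    obtain ⟨k, hk⟩ := hd
    have hpos : 0 < Nat.card C := Nat.card_pos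
    rcases hp23 with rfl | rfl <;> omega
  have hmemE : ∀ x ∈ Subgroup.zpowers e, x = 1 ∨ x = e ∨ (p = 3 ∧ x = e⁻¹) := by
    intro x hx
    classical
    have hfo : IsOfFinOrder e := orderOf_pos_iff.1 (by rw [hord he he1]; exact hp.pos)
    rw [hfo.mem_zpowers_iff_mem_range_orderOf, Finset.mem_image] at hx
    obtain ⟨k, hk, rfl⟩ := hx
    rw [Finset.mem_range] at hk
    rw [hord he he1] at hk
    rcases hp23 with rfl | rfl
    · interval_cases k <;> simp
    · interval_cases k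
      · simp
      · simp
      · right; right
        refine ⟨rfl, eq_inv_of_mul_eq_one_left ?_⟩
        rw [← pow_succ]
        exact hexp e he
  obtain ⟨c, hec⟩ := S.exists_att he he1
  -- elements outside `⟨e⟩` send the partner of `e` to `e⁻¹`
  have hneg : ∀ d ∈ A, d ∉ Subgroup.zpowers e → ∀ b, Att A B d b →
      p = 3 ∧ (nel d b)⁻¹ * c⁻¹ * nel d b = e⁻¹ := by
    intro d hd hde b hb
    have hg := hCe (S.comm_mem he (S.nel_mul_mem hec hb))
    have e1 : (nel e c * nel d b)⁻¹ * e * (nel e c * nel d b) =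
        (nel d b)⁻¹ * c⁻¹ * nel d b := by
      calc (nel e c * nel d b)⁻¹ * e * (nel e c * nel d b)
          = (nel d b)⁻¹ * ((nel e c)⁻¹ * e * nel e c) * nel d b := by group
        _ = _ := by rw [S.conj_left hec]
    rw [e1, Subgroup.mul_mem_cancel_right _ (inv_mem (Subgroup.mem_zpowers e))] at hg
    rcases hmemE _ hg with h | h | h
    · exfalso
      refine hec.2.2.2.1 (inv_eq_one.1 ?_)
      calc c⁻¹ = nel d b * ((nel d b)⁻¹ * c⁻¹ * nel d b) * (nel d b)⁻¹ := by group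
        _ = 1 := by rw [h]; group
    · exfalso
      have h2 : (nel d⁻¹ b⁻¹)⁻¹ * e * nel d⁻¹ b⁻¹ = c⁻¹ := by
        rw [S.nel_inv hb, ← h]
        group
      rcases S.eq_of_conj hec (S.att_inv hb) h2 with h3 | h3
      · exact hde (by rw [← inv_inv d, ← h3]; exact inv_mem (Subgroup.mem_zpowers e))
      · exact hde (by rw [mul_inv_eq_one] at h3; rw [← h3]; exact Subgroup.mem_zpowers e)
    · exact h
  obtain ⟨d, hd, hde⟩ : ∃ d ∈ A, d ∉ Subgroup.zpowers e := by
    by_contra hall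
    push Not at hall
    have hfo : IsOfFinOrder e := orderOf_pos_iff.1 (by rw [hord he he1]; exact hp.pos)
    haveI : Finite (Subgroup.zpowers e) := hfo.finite_zpowers.to_subtype
    have h1 : ENat.card A ≤ ENat.card (Subgroup.zpowers e) :=
      ENat.card_le_card_of_injective (f := Subgroup.inclusion hall) (Subgroup.inclusion_injective _)
    rw [ENat.card_eq_coe_natCard (Subgroup.zpowers e), Nat.card_zpowers, hord he he1] at h1
    have : (p : ℕ∞) ≤ 3 := by exact_mod_cast (show p ≤ 3 by omega)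
    exact absurd (lt_of_lt_of_le hA (h1.trans this)) (lt_irrefl _)
  have hd1 : d ≠ 1 := fun h => hde (h ▸ one_mem _)
  have hF : ∀ t ∈ A, t ∉ Subgroup.zpowers e → ∀ u q, Att A B t u → Att A B (e * t) q →
      Att A B (e * t⁻¹) (q * u⁻¹) := by
    intro t ht hte u q htu hq
    refine S.shift htu he he1 hq ?_ hec
    have h1 := (hneg t⁻¹ (inv_mem ht) (by simpa using hte) u⁻¹ (S.att_inv htu)).2
    rw [S.nel_inv htu, inv_inv] at h1
    calc (nel t u)⁻¹ * e * nel t u
        = ((nel t u)⁻¹ * e⁻¹ * nel t u)⁻¹ := by group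
      _ = ((nel t u)⁻¹ * (nel t u * c⁻¹ * (nel t u)⁻¹) * nel t u)⁻¹ := by rw [h1]
      _ = c := by group
  obtain ⟨b, hb⟩ := S.exists_att hd hd1
  have hp3 : p = 3 := (hneg d hd hde b hb).1
  subst hp3
  have hde' : e * d ∉ Subgroup.zpowers e := fun h =>
    hde ((Subgroup.mul_mem_cancel_left _ (Subgroup.mem_zpowers e)).1 h)
  obtain ⟨q, hq⟩ := S.exists_att (mul_mem he hd) (fun h => hde' (h ▸ one_mem _))
  have he2 : e * (e * d) = e⁻¹ * d := by
    rw [← mul_assoc]
    congr 1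
    refine eq_inv_of_mul_eq_one_left ?_
    rw [← pow_two, ← pow_succ]
    exact hexp e he
  have hne : e⁻¹ * d ≠ 1 := fun h =>
    hde (by rw [inv_mul_eq_one] at h; rw [← h]; exact Subgroup.mem_zpowers e)
  obtain ⟨r, hr⟩ := S.exists_att (mul_mem (inv_mem he) hd) hne
  have h1 := hF (e * d) (mul_mem he hd) hde' q r hq (by rw [he2]; exact hr)
  rw [mul_inv_rev, ← mul_assoc, S.comm_left he (inv_mem hd), mul_assoc, mul_inv_cancel,
    mul_one] at h1
  have h2 : r * q⁻¹ = b⁻¹ := S.att_unique h1 (S.att_inv hb)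
  have h3 := hF d hd hde b q hb hq
  have hrq : r = q * b⁻¹ := by
    rw [mul_inv_eq_iff_eq_mul] at h2
    rw [h2, S.comm_right hq.2.2.1 (inv_mem hb.2.2.1)]
  have h4 : e⁻¹ * d = e * d⁻¹ := S.att_unique_left hr (hrq ▸ h3)
  have h5 : d ^ 2 = e ^ 2 := by
    calc d ^ 2 = e * (e⁻¹ * d) * d := by rw [pow_two, mul_inv_cancel_left]
      _ = e * (e * d⁻¹) * d := by rw [h4]
      _ = e ^ 2 := by rw [pow_two, mul_assoc, inv_mul_cancel_right]
  refine hde ?_
  have h6 : d⁻¹ = e⁻¹ := by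
    have e3 := hexp e he
    have d3 := hexp d hd
    rw [pow_succ] at e3 d3
    rw [h5, ← e3] at d3
    exact congrArg (·⁻¹) (mul_left_cancel d3)
  rw [inv_inj] at h6
  rw [h6]
  exact Subgroup.mem_zpowers e

end SpecialAb

end Cfsg.Agent.RankOneSpecial
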