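import Cfsg.Agent.RankOneSpecial.Basic
import Cfsg.Agent.RootSub.SL2Gen.Basic
import Cfsg.Agent.CentralExt.SL2

/-!
# The subgroup of an attached pair in exponent `p`

It is a quotient of `SL₂(p)` by a central subgroup.
-/

set_option autoImplicit false

namespace Cfsg.Agent.RankOneSpecial

open Cfsg Cfsg.Agent.RootSub
open Cfsg.Agent.RootSub.SL2Gen (uu vv)
open scoped MatrixGroups

variable {G : Type*} [Group G] {p : ℕ} [Fact p.Prime]

/-- Powers with exponents modulo `p`. -/
def pw (a : G) (t : ZMod p) : G := a ^ t.val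

theorem pw_natCast {a : G} (h : a ^ p = 1) (n : ℕ) : pw a (n : ZMod p) = a ^ n := by
  rw [pw, ZMod.val_natCast, ← pow_eq_pow_mod n h]

theorem pw_zero (a : G) : pw a (0 : ZMod p) = 1 := by simp [pw]

theorem pw_one {a : G} (h : a ^ p = 1) : pw a (1 : ZMod p) = a := by
  rw [← Nat.cast_one, pw_natCast h, pow_one]

theorem pw_add {a : G} (h : a ^ p = 1) (s t : ZMod p) : pw a (s + t) = pw a s * pw a t := by
  rw [pw, pw, pw, ← pow_add, ZMod.val_add, ← pow_eq_pow_mod _ h]

theorem pw_neg {a : G} (h : a ^ p = 1) (t : ZMod p) : pw a (-t) = (pw a t)⁻¹ := by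
  refine (inv_eq_of_mul_eq_one_right ?_).symm
  rw [← pw_add h, add_neg_cancel, pw_zero]

theorem pw_pow {a : G} (h : a ^ p = 1) (t : ZMod p) (n : ℕ) : pw a t ^ n = pw a (t * (n : ZMod p)) := by
  rw [pw, ← pow_mul, ← pw_natCast h]
  simp

theorem pw_eq_one_iff {a : G} (h : a ^ p = 1) (ha : a ≠ 1) {t : ZMod p} :
    pw a t = 1 ↔ t = 0 := by
  refine ⟨fun ht => ?_, fun ht => by rw [ht, pw_zero]⟩
  have ho : orderOf a = p := orderOf_eq_prime h ha
  have hd := orderOf_dvd_of_pow_eq_one ht
  rw [ho] at hd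
  have := Nat.eq_zero_of_dvd_of_lt hd t.val_lt
  exact (ZMod.val_eq_zero t).1 this

theorem pw_mem {A : Subgroup G} {a : G} (ha : a ∈ A) (t : ZMod p) : pw a t ∈ A := pow_mem ha _

namespace SpecialAb

variable {A B : Subgroup G} {a b : G}

theorem att_pow_prime (S : SpecialAb A B) (h : Att A B a b) (hp : a ^ p = 1) {t : ZMod p}
    (ht : t ≠ 0) : Att A B (pw a t) (pw b t⁻¹) := by
  have hb : b ^ p = 1 := (S.pow_eq_one_iff h p).1 hp
  obtain ⟨d, hd⟩ := S.exists_att (a := pw a t) (pw_mem h.1 t)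
    (fun he => ht ((pw_eq_one_iff hp h.2.1).1 he))
  have hd1 : d ^ t.val = b := S.att_pow h hd
  have hdp : d ^ p = 1 :=
    (S.pow_eq_one_iff hd p).1 (by rw [pw, ← pow_mul, mul_comm, pow_mul, hp, one_pow])
  have : d = pw b t⁻¹ := by
    rw [pw, ← hd1, ← pow_mul, ← pw_natCast (p := p) hdp]
    push_cast
    rw [ZMod.natCast_zmod_val, ZMod.natCast_zmod_val, mul_inv_cancel₀ ht, pw_one hdp]
  exact this ▸ hd

/-- The point of a nonzero vector. -/
def point (A B : Subgroup G) (a : G) (v : Fin 2 → ZMod p) : Subgroup G :=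
  if v 1 = 0 then A else conjBy B (pw a (v 0 / v 1))

theorem point_of_zero (A B : Subgroup G) (a : G) {v : Fin 2 → ZMod p} (h : v 1 = 0) :
    point A B a v = A := if_pos h

theorem point_of_ne (A B : Subgroup G) (a : G) {v : Fin 2 → ZMod p} (h : v 1 ≠ 0) :
    point A B a v = conjBy B (pw a (v 0 / v 1)) := if_neg h

/-- The action of a matrix on a vector. -/
def act (M : SL(2, ZMod p)) (v : Fin 2 → ZMod p) : Fin 2 → ZMod p :=
  ![M 0 0 * v 0 + M 0 1 * v 1, M 1 0 * v 0 + M 1 1 * v 1]

theorem act_mul (M N : SL(2, ZMod p)) (v : Fin 2 → ZMod p) :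
    act (M * N) v = act M (act N v) := by
  ext i
  fin_cases i <;> simp [act, Matrix.mul_apply, Fin.sum_univ_two] <;> ring

theorem act_one (v : Fin 2 → ZMod p) : act 1 v = v := by
  ext i
  fin_cases i <;> simp [act]

theorem act_ne_zero (M : SL(2, ZMod p)) {v : Fin 2 → ZMod p} (hv : v ≠ 0) : act M v ≠ 0 := by
  intro h
  apply hv
  have h2 : act M⁻¹ (act M v) = v := by rw [← act_mul, inv_mul_cancel, act_one]
  rw [h] at h2
  rw [← h2]
  ext i
  fin_cases i <;> simp [act]

theorem point_uu (hp : a ^ p = 1) (ha : a ∈ A) (v : Fin 2 → ZMod p) :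
    conjBy (point A B a v) a = point A B a (act (uu 1) v) := by
  have e : act (uu (1 : ZMod p)) v = ![v 0 + v 1, v 1] := by
    ext i
    fin_cases i <;> simp [act]
  rw [e]
  by_cases h1 : v 1 = 0
  · rw [point_of_zero A B a h1, point_of_zero A B a (by simpa using h1)]
    exact conjBy_mem_self ha
  · rw [point_of_ne A B a h1, point_of_ne A B a (by simpa using h1)]
    simp only [Matrix.cons_val_one, Matrix.cons_val_zero]
    rw [conjBy_conjBy, add_div, div_self h1, add_comm, pw_add hp, pw_one hp]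

theorem point_vv (S : SpecialAb A B) (h : Att A B a b) (hp : a ^ p = 1) {v : Fin 2 → ZMod p}
    (hv : v ≠ 0) : conjBy (point A B a v) b⁻¹ = point A B a (act (vv (-1)) v) := by
  obtain ⟨ha, ha1, hb, hb1, he⟩ := id h
  have hbp : b ^ p = 1 := (S.pow_eq_one_iff h p).1 hp
  have e : act (vv (-1 : ZMod p)) v = ![v 0, v 1 - v 0] := by
    ext i
    fin_cases i <;> simp [act, sub_eq_add_neg, add_comm]
  rw [e]
  by_cases h0 : v 0 = 0
  · have h1 : v 1 ≠ 0 := fun h1 => hv (by ext i; fin_cases i <;> assumption)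
    rw [point_of_ne A B a h1, point_of_ne A B a (by simpa [h0] using h1)]
    simp only [Matrix.cons_val_one, Matrix.cons_val_zero, h0, sub_zero, zero_div, pw_zero,
      conjBy_one]
    exact conjBy_mem_self (inv_mem hb)
  by_cases h1 : v 1 = 0
  · rw [point_of_zero A B a h1, point_of_ne A B a (by simpa [h1] using h0)]
    simp only [Matrix.cons_val_one, Matrix.cons_val_zero]
    rw [h1, zero_sub, div_neg, div_self h0, pw_neg hp, pw_one hp, he]
  rw [point_of_ne A B a h1]
  have hA := (S.att_pow_prime h hp (t := -(v 0 / v 1)) (neg_ne_zero.2 (div_ne_zero h0 h1))).2.2.2.2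
  rw [pw_neg hp, inv_inv, inv_neg, pw_neg hbp, inv_inv, inv_div] at hA
  rw [← hA, conjBy_conjBy]
  by_cases h2 : v 1 - v 0 = 0
  · rw [point_of_zero A B a (by simpa using h2)]
    have h3 : v 1 = v 0 := sub_eq_zero.1 h2
    rw [h3, div_self h0, pw_one hbp, inv_mul_cancel, conjBy_one]
  · rw [point_of_ne A B a (by simpa using h2)]
    simp only [Matrix.cons_val_one, Matrix.cons_val_zero]
    have hs : (1 - v 1 / v 0) ≠ 0 := by
      intro hz
      apply h2
      field_simp at hz
      linear_combination -hz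
    have hB := (S.att_pow_prime h hp (t := (1 - v 1 / v 0)⁻¹) (inv_ne_zero hs)).2.2.2.2
    rw [inv_inv, ← pw_neg hbp, ← pw_neg hp] at hB
    have e1 : b⁻¹ * pw b (v 1 / v 0) = pw b (-(1 - v 1 / v 0)) := by
      rw [show -(1 - v 1 / v 0) = -1 + v 1 / v 0 by ring, pw_add hbp, pw_neg hbp, pw_one hbp]
    have e2 : -(1 - v 1 / v 0)⁻¹ = v 0 / (v 1 - v 0) := by
      rw [← inv_neg, neg_sub, div_sub_one h0, inv_div]
    rw [e1, hB, e2]

/-- A character of `SL₂(2)`. -/
def chiTwo (M : SL(2, ZMod 2)) : ZMod 2 :=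
  (1 - M 1 0) * (M 0 1 * M 1 1) + M 1 0 * (M 0 0 + M 1 1 + 1)

/-- A character of `SL₂(3)`. -/
def chiThree (M : SL(2, ZMod 3)) : ZMod 3 :=
  (1 - M 1 0 * M 1 0) * (M 0 1 * M 1 1 + M 1 0) + M 1 0 * (M 0 0 + M 1 1)

theorem chiTwo_mul : ∀ M N : SL(2, ZMod 2), chiTwo (M * N) = chiTwo M + chiTwo N := by
  decide +kernel

theorem chiThree_mul : ∀ M N : SL(2, ZMod 3), chiThree (M * N) = chiThree M + chiThree N := by
  decide +kernel

theorem exists_char (hp : p < 5) :
    ∃ χ : SL(2, ZMod p) →* Multiplicative (ZMod p),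
      χ (uu 1) = Multiplicative.ofAdd 1 := by
  have h5 := (Fact.out : p.Prime).two_le
  have hp23 : p = 2 ∨ p = 3 := by
    have : p ≠ 4 := fun h4 => by
      have := (Fact.out : p.Prime)
      rw [h4] at this
      norm_num at this
    omega
  rcases hp23 with rfl | rfl
  · refine ⟨MonoidHom.mk' (fun M => Multiplicative.ofAdd (chiTwo M))
      (fun M N => by rw [chiTwo_mul]; rfl), ?_⟩
    decide +kernel +revert
  · refine ⟨MonoidHom.mk' (fun M => Multiplicative.ofAdd (chiThree M))
      (fun M N => by rw [chiThree_mul]; rfl), ?_⟩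
    decide +kernel +revert

/-- `⟨a, b⟩` is a quotient of `SL₂(p)` by a central subgroup. -/
theorem exists_hom (S : SpecialAb A B) (h : Att A B a b) (hp : a ^ p = 1) :
    ∃ φ : SL(2, ZMod p) →* G, φ.range = Subgroup.closure {a, b} ∧
      φ.ker ≤ Subgroup.center SL(2, ZMod p) := by
  obtain ⟨ha, ha1, hb, hb1, he⟩ := id h
  have hbp : b ^ p = 1 := (S.pow_eq_one_iff h p).1 hp
  let Γ : Subgroup (G × SL(2, ZMod p)) :=
    Subgroup.closure {(a, uu 1), (b⁻¹, vv (-1))}
  have inv : ∀ x ∈ Γ, ∀ v : Fin 2 → ZMod p, v ≠ 0 →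
      conjBy (point A B a v) x.1 = point A B a (act x.2 v) := by
    intro x hx
    refine Subgroup.closure_induction (p := fun x _ => ∀ v : Fin 2 → ZMod p, v ≠ 0 →
      conjBy (point A B a v) x.1 = point A B a (act x.2 v)) ?_ ?_ ?_ ?_ hx
    · rintro x (rfl | rfl) v hv
      · exact point_uu hp ha v
      · exact S.point_vv h hp hv
    · intro v _
      rw [Prod.fst_one, Prod.snd_one, conjBy_one, act_one]
    · intro x y _ _ hx hy v hv
      rw [Prod.fst_mul, Prod.snd_mul, ← conjBy_conjBy, hy v hv, hx _ (act_ne_zero _ hv), act_mul]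
    · intro x _ hx v hv
      have h2 := hx _ (act_ne_zero x.2⁻¹ hv)
      rw [← act_mul, mul_inv_cancel, act_one] at h2
      rw [Prod.fst_inv, Prod.snd_inv, ← h2, conjBy_conjBy, inv_mul_cancel, conjBy_one]
  have hg0 : (a, uu (1 : ZMod p)) ∈ Γ := Subgroup.subset_closure (Or.inl rfl)
  have hh0 : (b⁻¹, vv (-1 : ZMod p)) ∈ Γ := Subgroup.subset_closure (Or.inr rfl)
  let σ : Γ →* SL(2, ZMod p) := (MonoidHom.snd G SL(2, ZMod p)).comp Γ.subtype
  have pu : ∀ n : ℕ, (uu (1 : ZMod p)) ^ n = uu (n : ZMod p) := by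
    intro n
    induction n with
    | zero => rw [pow_zero, Nat.cast_zero, SL2Gen.uu_zero]
    | succ n ih => rw [pow_succ, ih, SL2Gen.uu_add, Nat.cast_succ]
  have pv : ∀ n : ℕ, (vv (-1 : ZMod p)) ^ n = vv (-(n : ZMod p)) := by
    intro n
    induction n with
    | zero => rw [pow_zero, Nat.cast_zero, neg_zero, SL2Gen.vv_zero]
    | succ n ih => rw [pow_succ, ih, SL2Gen.vv_add, Nat.cast_succ, neg_add]
  have hσ : Function.Surjective σ := by
    rw [← MonoidHom.range_eq_top]
    refine SL2Gen.eq_top_of_all (fun x => ?_) (fun x => ?_)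
    · refine ⟨⟨_, pow_mem hg0 x.val⟩, ?_⟩
      show (uu (1 : ZMod p)) ^ x.val = uu x
      rw [pu, ZMod.natCast_zmod_val]
    · refine ⟨⟨_, pow_mem hh0 (-x).val⟩, ?_⟩
      show (vv (-1 : ZMod p)) ^ (-x).val = vv x
      rw [pv, ZMod.natCast_zmod_val, neg_neg]
  -- the kernel is central
  have hker : σ.ker ≤ Subgroup.center Γ := by
    intro x hx
    have hx2 : (x : G × SL(2, ZMod p)).2 = 1 := hx
    set y := (x : G × SL(2, ZMod p)).1 with hy
    have hfix : ∀ v : Fin 2 → ZMod p, v ≠ 0 → conjBy (point A B a v) y = point A B a v := by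
      intro v hv
      have := inv _ x.2 v hv
      rwa [hx2, act_one] at this
    have f1 : conjBy A y = A := by
      have := hfix ![1, 0] (fun hz => one_ne_zero (congrFun hz 0))
      simpa [point] using this
    have f2 : conjBy B y = B := by
      have := hfix ![0, 1] (fun hz => one_ne_zero (congrFun hz 1))
      simpa [point, pw_zero, conjBy_one] using this
    have fA : ∀ {c : G}, c ∈ A → conjBy (conjBy B c) y = conjBy B c → y * c = c * y := by
      intro c hc h3
      have hyc : y * c * y⁻¹ ∈ A := by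
        have := conj_mem_conjBy y hc
        rwa [f1] at this
      have h4 : conjBy B (y * c * y⁻¹) = conjBy B c := by
        rw [← conjBy_conjBy B y⁻¹ (y * c), ← conjBy_eq_iff.1 f2, ← conjBy_conjBy, h3]
      exact mul_inv_eq_iff_eq_mul.1 (S.regular hyc hc h4)
    have ca : y * a = a * y := by
      refine fA ha ?_
      have := hfix ![1, 1] (fun hz => one_ne_zero (congrFun hz 1))
      simpa [point, pw_one hp] using this
    have ca' : y * a⁻¹ = a⁻¹ * y := (Commute.inv_right ca).eq
    have cb : y * b⁻¹ = b⁻¹ * y := by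
      have hyb : y * b⁻¹ * y⁻¹ ∈ B := by
        have := conj_mem_conjBy y (inv_mem hb)
        rwa [f2] at this
      have h4 : conjBy A (y * b⁻¹ * y⁻¹) = conjBy A b⁻¹ := by
        rw [← conjBy_conjBy A y⁻¹ (y * b⁻¹), ← conjBy_eq_iff.1 f1, ← conjBy_conjBy, he,
          conjBy_conjBy, ca', ← conjBy_conjBy, f2]
      exact mul_inv_eq_iff_eq_mul.1 (S.symm.regular hyb (inv_mem hb) h4)
    rw [Subgroup.mem_center_iff]
    intro g
    apply Subtype.ext
    have hg : (g : G × SL(2, ZMod p)).1 * y = y * (g : G × SL(2, ZMod p)).1 := by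
      refine Subgroup.closure_induction (p := fun g _ => g.1 * y = y * g.1) ?_ ?_ ?_ ?_ g.2
      · rintro g (rfl | rfl)
        exacts [ca.symm, cb.symm]
      · simp
      · intro g k _ _ hg hk
        exact Commute.mul_left (show Commute g.1 y from hg) hk
      · intro g _ hg
        exact Commute.inv_left (show Commute g.1 y from hg)
    refine Prod.ext ?_ ?_
    · exact hg
    · show (g : G × SL(2, ZMod p)).2 * (x : G × SL(2, ZMod p)).2 =
        (x : G × SL(2, ZMod p)).2 * (g : G × SL(2, ZMod p)).2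
      rw [hx2, one_mul, mul_one]
  -- the kernel lies in the commutator subgroup
  let g1 : Γ := ⟨_, hg0⟩
  let h1 : Γ := ⟨_, hh0⟩
  let q : Γ →* Abelianization Γ := Abelianization.of
  have hq : q h1 = q g1 := by
    have hbr : g1 * h1 * g1 = h1 * g1 * h1 := by
      apply Subtype.ext
      refine Prod.ext (S.braid h) ?_
      show uu (1 : ZMod p) * vv (-1) * uu 1 = vv (-1) * uu 1 * vv (-1)
      apply SL2Gen.sl_ext <;> simp [Matrix.mul_apply, Fin.sum_univ_two]
    have := congrArg q hbr
    simp only [map_mul] at this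
    rw [mul_comm (q h1) (q g1)] at this
    exact (mul_left_cancel this).symm
  have hgp : g1 ^ p = 1 := by
    apply Subtype.ext
    refine Prod.ext hp ?_
    show (uu (1 : ZMod p)) ^ p = 1
    rw [pu, ZMod.natCast_self, SL2Gen.uu_zero]
  have hgen : ∀ x : Γ, ∃ k : ℤ, q x = q g1 ^ k := by
    rintro ⟨x, hx⟩
    refine Subgroup.closure_induction (p := fun x hx => ∃ k : ℤ, q ⟨x, hx⟩ = q g1 ^ k) ?_ ?_ ?_ ?_ hx
    · rintro x (rfl | rfl)
      · exact ⟨1, (zpow_one _).symm⟩
      · exact ⟨1, hq.trans (zpow_one _).symm⟩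
    · exact ⟨0, by rw [zpow_zero]; exact map_one q⟩
    · rintro x y hx hy ⟨k, hk⟩ ⟨l, hl⟩
      exact ⟨k + l, by rw [zpow_add, ← hk, ← hl, ← map_mul]; rfl⟩
    · rintro x hx ⟨k, hk⟩
      exact ⟨-k, by rw [zpow_neg, ← hk, ← map_inv]; rfl⟩
  have hcomm : σ.ker ≤ commutator Γ := by
    intro x hx
    rw [← Abelianization.ker_of, MonoidHom.mem_ker]
    change q x = 1
    obtain ⟨k, hk⟩ := hgen x
    rw [hk]
    by_cases h5 : 5 ≤ p
    · have h2p : (2 : ZMod p) ≠ 0 := by
        rw [← Nat.cast_two, Ne, ZMod.natCast_eq_zero_iff]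
        exact Nat.not_dvd_of_pos_of_lt two_pos (by omega)
      let t : ZMod p := 2
      have hg2 : ((a ^ 2, uu (2 : ZMod p)) : G × SL(2, ZMod p)) ∈ Γ := by
        have := pow_mem hg0 2
        rwa [Prod.pow_mk, pu, Nat.cast_two] at this
      have hh2 : ((b⁻¹ ^ (t⁻¹).val, vv (-t⁻¹)) : G × SL(2, ZMod p)) ∈ Γ := by
        have := pow_mem hh0 (t⁻¹).val
        rwa [Prod.pow_mk, pv, ZMod.natCast_zmod_val] at this
      let g2 : Γ := ⟨_, hg2⟩
      let h2 : Γ := ⟨_, hh2⟩
      have eg : g2 = g1 ^ 2 := by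
        apply Subtype.ext
        refine Prod.ext rfl ?_
        show uu (2 : ZMod p) = uu 1 ^ 2
        rw [pu, Nat.cast_two]
      have eh : h2 = h1 ^ (t⁻¹).val := by
        apply Subtype.ext
        refine Prod.ext rfl ?_
        show vv (-t⁻¹) = vv (-1 : ZMod p) ^ (t⁻¹).val
        rw [pv, ZMod.natCast_zmod_val]
      have hbr : g2 * h2 * g2 = h2 * g2 * h2 := by
        apply Subtype.ext
        refine Prod.ext ?_ ?_
        · have hA := S.braid (S.att_pow_prime h hp (t := t) h2p)
          rw [show pw a t = a ^ 2 by rw [← Nat.cast_two (R := ZMod p)] at *; exact pw_natCast hp 2,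
            pw, ← inv_pow] at hA
          exact hA
        · show uu (2 : ZMod p) * vv (-t⁻¹) * uu 2 = vv (-t⁻¹) * uu 2 * vv (-t⁻¹)
          apply SL2Gen.sl_ext <;> simp [Matrix.mul_apply, Fin.sum_univ_two, t, h2p] <;> ring
      have h3 := congrArg q hbr
      simp only [map_mul] at h3
      rw [mul_comm (q h2) (q g2)] at h3
      have h4 := mul_left_cancel h3
      rw [eg, eh, map_pow, map_pow, hq] at h4
      have hqp : q g1 ^ p = 1 := by rw [← map_pow, hgp, map_one]
      by_contra hne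
      have hq1 : q g1 ≠ 1 := fun hq1 => hne (by rw [hq1, one_zpow])
      have ho : orderOf (q g1) = p := orderOf_eq_prime hqp hq1
      have h6 := pow_eq_pow_iff_modEq.1 h4
      rw [ho, ← ZMod.natCast_eq_natCast_iff, ZMod.natCast_zmod_val, Nat.cast_two] at h6
      have h7 : ((3 : ℕ) : ZMod p) = 0 := by
        have : (2 : ZMod p) * 2 = 1 := by
          nth_rewrite 1 [h6]
          exact inv_mul_cancel₀ h2p
        push_cast
        linear_combination this
      have := Nat.le_of_dvd three_pos ((ZMod.natCast_eq_zero_iff _ _).1 h7)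
      omega
    · obtain ⟨χ, hχ⟩ := exists_char (p := p) (by omega)
      obtain ⟨f, hf⟩ : ∃ f : Abelianization Γ →* Multiplicative (ZMod p), ∀ x, f (q x) = χ (σ x) :=
        ⟨Abelianization.lift (χ.comp σ), fun x => Abelianization.lift_apply_of _ x⟩
      have h3 : χ (σ x) = Multiplicative.ofAdd (1 : ZMod p) ^ k := by
        rw [← hf x, hk, map_zpow, hf]
        exact congrArg (· ^ k) hχ
      rw [MonoidHom.mem_ker.1 hx, map_one, ← ofAdd_zsmul] at h3
      have h4 : (k : ZMod p) = 0 := by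
        have := congrArg Multiplicative.toAdd h3
        simpa using this.symm
      obtain ⟨c, rfl⟩ := (ZMod.intCast_zmod_eq_zero_iff_dvd k p).1 h4
      rw [zpow_mul, zpow_natCast, ← map_pow, hgp, map_one, one_zpow]
  have hbot : σ.ker = ⊥ := by
    refine Cfsg.Agent.CentralExt.ker_eq_bot_of_trivial ?_ ⟨hσ, hker, hcomm⟩
    refine Cfsg.Agent.CentralExt.SL2.hasCyclicSchurMultiplier_SL2 ?_ ?_ <;>
    · rw [ZMod.card]
      intro h4
      have := (Fact.out : p.Prime)
      rw [h4] at this
      norm_num at this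
  have hinj : Function.Injective σ := (MonoidHom.ker_eq_bot_iff σ).1 hbot
  let e : Γ ≃* SL(2, ZMod p) := MulEquiv.ofBijective σ ⟨hinj, hσ⟩
  let π : Γ →* G := (MonoidHom.fst G SL(2, ZMod p)).comp Γ.subtype
  refine ⟨π.comp e.symm.toMonoidHom, ?_, ?_⟩
  · rw [MonoidHom.range_comp, MonoidHom.range_eq_top.2 e.symm.surjective, ← MonoidHom.range_eq_map,
      MonoidHom.range_comp, Subgroup.range_subtype, MonoidHom.map_closure]
    simp only [Set.image_pair, MonoidHom.coe_fst]
    apply le_antisymm <;> rw [Subgroup.closure_le] <;> rintro z (rfl | rfl)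
    · exact Subgroup.subset_closure (Or.inl rfl)
    · exact inv_mem (Subgroup.subset_closure (Or.inr rfl))
    · exact Subgroup.subset_closure (Or.inl rfl)
    · rw [← inv_inv z]
      exact inv_mem (Subgroup.subset_closure (Or.inr (by simp)))
  · intro M hM
    set x := e.symm M with hx
    have hx1 : (x : G × SL(2, ZMod p)).1 = 1 := hM
    have hx2 : (x : G × SL(2, ZMod p)).2 = M := e.apply_symm_apply M
    have hfix : ∀ v : Fin 2 → ZMod p, v ≠ 0 → point A B a v = point A B a (act M v) := by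
      intro v hv
      have := inv _ x.2 v hv
      rwa [hx1, hx2, conjBy_one] at this
    have h10 : M 1 0 = 0 := by
      have := hfix ![1, 0] (fun hz => one_ne_zero (congrFun hz 0))
      by_contra hne
      simp [point, act, hne] at this
      exact Pair.conjBy_right_ne_left S.pair (pw_mem ha _) this.symm
    have hd := SL2Gen.det_eq M
    rw [h10, mul_zero, sub_zero] at hd
    have h11 : M 1 1 ≠ 0 := fun hz => by simp [hz] at hd
    have h01 : M 0 1 = 0 := by
      have := hfix ![0, 1] (fun hz => one_ne_zero (congrFun hz 1))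
      simp [point, act, h11, pw_zero, conjBy_one] at this
      have h3 := S.regular (one_mem A) (pw_mem ha _) (by rw [conjBy_one]; exact this)
      rw [eq_comm, pw_eq_one_iff hp ha1] at h3
      simpa [h11] using h3
    have h00 : M 0 0 = M 1 1 := by
      have := hfix ![1, 1] (fun hz => one_ne_zero (congrFun hz 1))
      simp [point, act, h10, h01, h11, pw_one hp] at this
      have h3 := S.regular ha (pw_mem ha _) this
      have h4 : pw a (M 0 0 / M 1 1 - 1) = 1 := by
        rw [sub_eq_add_neg, pw_add hp, ← h3, pw_neg hp, pw_one hp, mul_inv_cancel]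
      rw [pw_eq_one_iff hp ha1, sub_eq_zero, div_eq_one_iff_eq h11] at h4
      exact h4
    rw [Subgroup.mem_center_iff]
    intro N
    apply SL2Gen.sl_ext <;> simp [Matrix.mul_apply, Fin.sum_univ_two, h10, h01, h00, mul_comm]

/-- The two possibilities for the subgroup of an attached pair. -/
theorem closure_iso (S : SpecialAb A B) (h : Att A B a b) (hp : a ^ p = 1) :
    Nonempty (↥(Subgroup.closure ({a, b} : Set G)) ≃* Matrix.SpecialLinearGroup (Fin 2) (ZMod p)) ∨
    Nonempty (↥(Subgroup.closure ({a, b} : Set G)) ≃*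
      Matrix.ProjectiveSpecialLinearGroup (Fin 2) (ZMod p)) := by
  obtain ⟨φ, hr, hk⟩ := S.exists_hom h hp
  let e := (QuotientGroup.quotientKerEquivRange φ).trans (MulEquiv.subgroupCongr hr)
  by_cases hbot : φ.ker = ⊥
  · exact Or.inl ⟨(((QuotientGroup.quotientMulEquivOfEq hbot).trans
      QuotientGroup.quotientBot).symm.trans e).symm⟩
  · right
    have hc : φ.ker = Subgroup.center SL(2, ZMod p) := by
      refine le_antisymm hk fun z hz => ?_
      obtain ⟨M, hM, hM1⟩ := φ.ker.bot_or_exists_ne_one.resolve_left hbot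
      have key : ∀ N ∈ Subgroup.center SL(2, ZMod p), N ≠ 1 →
          ∀ i j, N i j = -(1 : Matrix (Fin 2) (Fin 2) (ZMod p)) i j := by
        intro N hN hN1 i j
        obtain ⟨r, hr, hr'⟩ := Matrix.SpecialLinearGroup.mem_center_iff.1 hN
        rw [Fintype.card_fin] at hr
        rcases sq_eq_one_iff.1 hr with rfl | rfl
        · exact absurd (Subtype.ext (by rw [← hr', map_one]; rfl)) hN1
        · rw [← hr', map_neg, map_one]
          rfl
      by_cases hz1 : z = 1
      · exact hz1 ▸ one_mem _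
      · have : z = M := by
          apply Subtype.ext
          ext i j
          rw [key z hz hz1 i j, key M (hk hM) hM1 i j]
        exact this ▸ hM
    exact ⟨((QuotientGroup.quotientMulEquivOfEq hc).symm.trans e).symm⟩

end SpecialAb

end Cfsg.Agent.RankOneSpecial
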