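import Cfsg.Agent.RankOneSpecial.Diagonal
import Cfsg.Agent.RankOneSpecial.PrimeField

/-!
# Special rank one groups with at most three elements in `A`
-/

set_option autoImplicit false

namespace Cfsg.Agent.RankOneSpecial

open Cfsg Cfsg.Agent.RootSub
open scoped MatrixGroups

theorem center_SL_two_two : Subgroup.center SL(2, ZMod 2) = ⊥ := by
  rw [eq_bot_iff]
  intro M hM
  obtain ⟨r, hr, hr'⟩ := Matrix.SpecialLinearGroup.mem_center_iff.1 hM
  rw [Fintype.card_fin] at hr
  have h1 : r = 1 := (by decide : ∀ r : ZMod 2, r ^ 2 = 1 → r = 1) r hr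
  exact Subgroup.mem_bot.2 (Subtype.ext (by rw [← hr', h1, map_one]; rfl))

variable {X : Type*} [Group X] {A B : Subgroup X}

theorem SpecialAb.small (S : SpecialAb A B) (htop : A ⊔ B = ⊤) (hA : ENat.card A ≤ 3) :
    Nonempty (X ≃* Matrix.SpecialLinearGroup (Fin 2) (ZMod 2)) ∨
    Nonempty (X ≃* Matrix.SpecialLinearGroup (Fin 2) (ZMod 3)) ∨
    Nonempty (X ≃* Matrix.ProjectiveSpecialLinearGroup (Fin 2) (ZMod 3)) := by
  obtain ⟨hfin, hle⟩ := le_three_of_finite (not_lt.2 hA)
  obtain ⟨a, ha, ha1⟩ := Pair.exists_ne_one (Pair.ne_bot_left S.pair)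
  have hone : 1 < Nat.card A := by
    haveI : Nontrivial A := ⟨⟨a, ha⟩, 1, fun h => ha1 (congrArg Subtype.val h)⟩
    exact Finite.one_lt_card
  set p := Nat.card A with hp
  have hpp : p.Prime := by
    rcases (show p = 2 ∨ p = 3 by omega) with h | h <;> rw [h]
    exacts [Nat.prime_two, Nat.prime_three]
  haveI : Fact p.Prime := ⟨hpp⟩
  have hap : a ^ p = 1 := congrArg Subtype.val (pow_card_eq_one' (x := (⟨a, ha⟩ : A)))
  have hzA : Subgroup.zpowers a = A := by
    refine Subgroup.eq_of_le_of_card_ge (Subgroup.zpowers_le.2 ha) ?_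
    rw [Nat.card_zpowers, orderOf_eq_prime hap ha1]
  obtain ⟨b, hb⟩ := S.exists_att ha ha1
  have hB : B ≤ Subgroup.closure {a, b} := by
    intro y hy
    have h1 := S.conj_mem_left hb hy
    rw [← hzA, Subgroup.mem_zpowers_iff] at h1
    obtain ⟨k, hk⟩ := h1
    have hn : nel a b ∈ Subgroup.closure ({a, b} : Set X) :=
      mul_mem (mul_mem (Subgroup.subset_closure (Or.inl rfl))
        (inv_mem (Subgroup.subset_closure (Or.inr rfl)))) (Subgroup.subset_closure (Or.inl rfl))
    have e : y = nel a b * ((nel a b)⁻¹ * y * nel a b) * (nel a b)⁻¹ := by group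
    have ha' : a ∈ Subgroup.closure ({a, b} : Set X) := Subgroup.subset_closure (Or.inl rfl)
    rw [e, ← hk]
    exact mul_mem (mul_mem hn (zpow_mem ha' k)) (inv_mem hn)
  have hcl : Subgroup.closure ({a, b} : Set X) = ⊤ := by
    refine top_le_iff.1 (htop ▸ sup_le ?_ hB)
    rw [← hzA, Subgroup.zpowers_le]
    exact Subgroup.subset_closure (Or.inl rfl)
  have key := S.closure_iso hb (p := p) hap
  rw [hcl] at key
  obtain ⟨q, hq, hq23⟩ : ∃ q : ℕ, p = q ∧ (q = 2 ∨ q = 3) := ⟨p, rfl, by omega⟩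
  rw [hq] at key
  rcases hq23 with rfl | rfl
  · left
    rcases key with h | h <;> obtain ⟨e⟩ := h
    · exact ⟨Subgroup.topEquiv.symm.trans e⟩
    · exact ⟨Subgroup.topEquiv.symm.trans (e.trans
        ((QuotientGroup.quotientMulEquivOfEq center_SL_two_two).trans QuotientGroup.quotientBot))⟩
  · right
    rcases key with h | h <;> obtain ⟨e⟩ := h
    · exact Or.inl ⟨Subgroup.topEquiv.symm.trans e⟩
    · exact Or.inr ⟨Subgroup.topEquiv.symm.trans e⟩

end Cfsg.Agent.RankOneSpecial
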